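import Cfsg.Agent.H543.RV.Count
import Cfsg.Agent.H555.RV.Crit
import Cfsg.Agent.H715.Fpr.J3

/-!
# `J3` is not a `D_{2,5}`-group (helper543)
-/

set_option autoImplicit false

namespace Cfsg.Agent.H543.RV.JThree

open Subgroup Cfsg Cfsg.Agent.H571.DExt Cfsg.Spor Cfsg.Agent.H940.Eng.D
open Cfsg.Agent.J3Type.OneClass Cfsg.Agent.J2Type.Model

variable {G : Type} [Group G]

theorem perm_sq : ∀ τ : Equiv.Perm (Fin 5), Equiv.Perm.sign τ = 1 → τ ^ 5 = 1 → ∀ σ : Equiv.Perm (Fin 5),
    Equiv.Perm.sign σ = 1 → σ * τ = τ * τ * σ → τ = 1 := by decide +kernel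

/-- in the centraliser of an involution -/
theorem no_sq_cent (h : IsoJ3 G) {x t u : G} (hx : orderOf x = 5) (ht : orderOf t = 2) (htx : t * x = x * t)
    (hut : u * t = t * u) : u * x ≠ x * x * u := by
  intro hu
  obtain ⟨-, -, hM⟩ := H898.J3Cent.base h
  obtain ⟨-, hcard, Q, v, ρ, M⟩ := hM t ht
  have hxC : x ∈ centralizer ({t} : Set G) := by rw [mem_centralizer_singleton_iff]; exact htx.symm
  have huC : u ∈ centralizer ({t} : Set G) := by rw [mem_centralizer_singleton_iff]; exact hut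
  let c : centralizer ({t} : Set G) := ⟨x, hxC⟩
  let d : centralizer ({t} : Set G) := ⟨u, huC⟩
  have hc : c ^ 5 = 1 := Subtype.ext (by
    show x ^ 5 = 1
    rw [← hx, pow_orderOf_eq_one])
  have h1 : (ρ c).σ ^ 5 = 1 := by
    have h2 : ∀ n : ℕ, (ρ (c ^ n)).σ = (ρ c).σ ^ n := by
      intro n
      induction n with
      | zero => rw [pow_zero, pow_zero, map_one]; rfl
      | succ n ih =>
        have e1 : ρ (c ^ (n + 1)) = ρ (c ^ n) * ρ c := by rw [← map_mul, ← pow_succ]
        rw [e1]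
        show (ρ (c ^ n)).σ * (ρ c).σ = _
        rw [ih, ← pow_succ]
    rw [← h2, hc, map_one]; rfl
  have h2 : (ρ d).σ * (ρ c).σ = (ρ c).σ * (ρ c).σ * (ρ d).σ := by
    have h3 : d * c = c * c * d := Subtype.ext hu
    have h4 := congrArg (fun y => (ρ y).σ) h3
    simp only [map_mul, mul_σ] at h4
    exact h4
  have h3 := perm_sq _ ((M.range (ρ c)).1 ⟨c, rfl⟩).1 h1 _ ((M.range (ρ d)).1 ⟨d, rfl⟩).1 h2
  have h4 : c ∈ Q := by rw [M.mem_Q]; exact h3
  have h5 : ρ (c * c) = 1 := by
    rw [map_mul]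
    have h6 : ∀ s : SP, s.σ = 1 → s * s = 1 := by
      intro s hs
      ext i
      · show ((s.σ * s.σ) i : Fin 5).val = i.val
        rw [hs]; rfl
      · show s.s i + s.s (s.σ i) = 0
        rw [hs]
        show s.s i + s.s i = 0
        exact CharTwo.add_self_eq_zero _
    exact h6 _ h3
  have h6 : (c * c) * (c * c) = 1 := by
    rcases (M.ker _).1 h5 with h6 | h6
    · rw [h6, one_mul]
    · rw [h6, M.z_sq]
  have h7 : x ^ 4 = 1 := by
    have h8 := congrArg Subtype.val h6
    have h9 : (x * x) * (x * x) = 1 := h8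
    rw [← h9]
    simp only [pow_succ, pow_zero, one_mul, mul_assoc]
  have h8 := orderOf_dvd_of_pow_eq_one h7
  rw [hx] at h8
  norm_num at h8

/-- an element of order 5 is not conjugate to its square -/
theorem no_sq (h : IsoJ3 G) {x : G} (hx : orderOf x = 5) (u : G) : u * x ≠ x * x * u := by
  intro hu
  have := Cfsg.Agent.H715.Fpr.J3.fin h
  obtain ⟨t, ht, htx⟩ := Cfsg.Agent.H715.Fpr.J3.exists_inv h hx
  have h4 := Cfsg.Agent.H715.Fpr.J3.not_four h hx
  set s : G := u * t * u⁻¹ with hs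
  have hso : orderOf s = 2 := by
    rw [hs, ← MulAut.conj_apply, MulEquiv.orderOf_eq, ht]
  -- `s` centralises `x`
  have hsx2 : s * (x * x) = x * x * s := by
    have h1 : x * x = u * x * u⁻¹ := by rw [hu]; group
    calc s * (x * x) = u * t * u⁻¹ * (u * x * u⁻¹) := by rw [h1]
      _ = u * (t * x) * u⁻¹ := by group
      _ = u * (x * t) * u⁻¹ := by rw [htx]
      _ = (u * x * u⁻¹) * (u * t * u⁻¹) := by group
      _ = x * x * s := by rw [← h1]
  have hx5 : x ^ 5 = 1 := by rw [← hx, pow_orderOf_eq_one]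
  have hsx : s * x = x * s := by
    have h1 : Commute s (x * x) := hsx2
    have h2 : x = (x * x) ^ 3 := by
      calc x = x ^ 5 * x := by rw [hx5, one_mul]
        _ = (x * x) ^ 3 := by simp only [pow_succ, pow_zero, one_mul, mul_assoc]
    have h3 : Commute s ((x * x) ^ 3) := h1.pow_right 3
    rw [← h2] at h3
    exact h3
  set C := centralizer ({x} : Set G) with hC
  have hsC : s ∈ C := by rw [hC, mem_centralizer_singleton_iff]; exact hsx
  have htC : t ∈ C := by rw [hC, mem_centralizer_singleton_iff]; exact htx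
  obtain ⟨g, hg⟩ := Cfsg.Agent.H940.Eng.exists_conj_le (X := C) Nat.prime_two (by norm_num; exact h4)
    (R := zpowers (⟨s, hsC⟩ : C)) (by rw [Nat.card_zpowers, Subgroup.orderOf_mk, hso])
    (L := zpowers (⟨t, htC⟩ : C)) (by rw [Nat.card_zpowers, Subgroup.orderOf_mk, ht])
  have h5 : g * (⟨s, hsC⟩ : C) * g⁻¹ ∈ zpowers (⟨t, htC⟩ : C) := hg ⟨_, mem_zpowers _, rfl⟩
  have h6 : g * (⟨s, hsC⟩ : C) * g⁻¹ = ⟨t, htC⟩ := by
    obtain ⟨k, hk⟩ := h5
    have hk : (⟨t, htC⟩ : C) ^ k = g * (⟨s, hsC⟩ : C) * g⁻¹ := hk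
    have ht2 : (⟨t, htC⟩ : C) ^ 2 = 1 := by
      apply Subtype.ext
      show t ^ 2 = 1
      rw [← ht, pow_orderOf_eq_one]
    rcases Int.even_or_odd k with hk2 | hk2
    · exfalso
      obtain ⟨l, hl⟩ := hk2
      have h7 : (⟨t, htC⟩ : C) ^ k = 1 := by
        rw [hl, ← two_mul, zpow_mul]
        have : (⟨t, htC⟩ : C) ^ (2 : ℤ) = 1 := by exact_mod_cast ht2
        rw [this, one_zpow]
      rw [h7] at hk
      have h8 : (⟨s, hsC⟩ : C) = 1 := by
        have h9 : g * (⟨s, hsC⟩ : C) = g := mul_inv_eq_one.1 hk.symm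
        exact mul_eq_left.1 h9
      have h9 : s = 1 := congrArg Subtype.val h8
      rw [h9, orderOf_one] at hso
      norm_num at hso
    · obtain ⟨l, hl⟩ := hk2
      rw [← hk, hl, zpow_add, zpow_mul, zpow_one]
      have : (⟨t, htC⟩ : C) ^ (2 : ℤ) = 1 := by exact_mod_cast ht2
      rw [this, one_zpow, one_mul]
  have h7 : (g : G) * s * (g : G)⁻¹ = t := congrArg Subtype.val h6
  have hgx : (g : G) * x = x * g := mem_centralizer_singleton_iff.1 g.2
  refine no_sq_cent h hx ht htx (u := g * u) ?_ ?_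
  · calc (g : G) * u * t = g * (u * t * u⁻¹) * (g : G)⁻¹ * (g * u) := by group
      _ = t * (g * u) := by rw [← hs, h7]
  · calc (g : G) * u * x = g * (u * x) := by group
      _ = g * x * x * u := by rw [hu]; group
      _ = x * g * x * u := by rw [hgx]
      _ = x * (g * x) * u := by group
      _ = x * x * (g * u) := by rw [hgx]; group

theorem card_normalizer_le (h : IsoJ3 G) {x : G} (hx : orderOf x = 5) :
    Nat.card (normalizer ((zpowers x : Subgroup G) : Set G)) ≤ 2 * Nat.card (centralizer ({x} : Set G)) := by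
  have := Cfsg.Agent.H715.Fpr.J3.fin h
  have hx5 : x ^ 5 = 1 := by rw [← hx, pow_orderOf_eq_one]
  have key : ∀ n ∈ normalizer ((zpowers x : Subgroup G) : Set G), n * x * n⁻¹ = x ∨ n * x * n⁻¹ = x⁻¹ := by
    intro n hn
    obtain ⟨k, hk⟩ := (mem_normalizer_iff.1 hn x).1 (mem_zpowers x)
    have hk : x ^ k = n * x * n⁻¹ := hk
    have h5 : (x : G) ^ (k % 5) = x ^ k := by
      rw [← Int.emod_add_mul_ediv k 5, zpow_add, zpow_mul]
      have : x ^ (5 : ℤ) = 1 := by exact_mod_cast hx5
      rw [this, one_zpow, mul_one, Int.emod_add_mul_ediv]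
    have h6 : 0 ≤ k % 5 := Int.emod_nonneg _ (by norm_num)
    have h7 : k % 5 < 5 := Int.emod_lt_of_pos _ (by norm_num)
    rw [← hk, ← h5]
    generalize hkr : k % 5 = r at h5 h6 h7 ⊢
    have hkx : x ^ r = n * x * n⁻¹ := by rw [h5, hk]
    interval_cases r
    · exfalso
      rw [zpow_zero] at hkx
      have h8 : n * x = n := mul_inv_eq_one.1 hkx.symm
      have h9 : x = 1 := mul_eq_left.1 h8
      rw [h9, orderOf_one] at hx
      norm_num at hx
    · left; exact zpow_one x
    · exfalso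
      apply no_sq h hx n
      have h8 : x * x = n * x * n⁻¹ := by rw [← hkx]; exact (zpow_ofNat x 2).trans (pow_two x) |>.symm
      rw [h8]; group
    · exfalso
      apply no_sq h hx n⁻¹
      have h8 : x * x * x = n * x * n⁻¹ := by
        rw [← hkx, show (x : G) ^ (3 : ℤ) = x ^ 3 from zpow_ofNat x 3]
        simp only [pow_succ, pow_zero, one_mul]
      -- `n (x x) n⁻¹ = x ^ 6 = x`
      have h9 : n * (x * x) * n⁻¹ = x := by
        calc n * (x * x) * n⁻¹ = (n * x * n⁻¹) * (n * x * n⁻¹) := by group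
          _ = (x * x * x) * (x * x * x) := by rw [h8]
          _ = x ^ 5 * x := by simp only [pow_succ, pow_zero, one_mul, mul_assoc]
          _ = x := by rw [hx5, one_mul]
      calc n⁻¹ * x = n⁻¹ * (n * (x * x) * n⁻¹) := by rw [h9]
        _ = x * x * n⁻¹ := by group
    · right
      rw [show (x : G) ^ (4 : ℤ) = x ^ 4 from zpow_ofNat x 4, eq_inv_iff_mul_eq_one, ← pow_succ]
      exact hx5
  set N := normalizer ((zpowers x : Subgroup G) : Set G) with hN
  set C := centralizer ({x} : Set G) with hC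
  by_cases hall : ∀ n ∈ N, n * x * n⁻¹ = x
  · have h1 : N ≤ C := by
      intro n hn
      rw [hC, mem_centralizer_singleton_iff]
      have := hall n hn
      calc n * x = n * x * n⁻¹ * n := by group
        _ = x * n := by rw [this]
    have := Subgroup.card_le_of_le h1
    omega
  · push Not at hall
    obtain ⟨m, hm, hmx⟩ := hall
    have hmi : m * x * m⁻¹ = x⁻¹ := (key m hm).resolve_left hmx
    have hsub : (N : Set G) ⊆ (C : Set G) ∪ (fun c => m * c) '' (C : Set G) := by
      intro n hn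
      rcases key n hn with h1 | h1
      · left
        show n ∈ C
        rw [hC, mem_centralizer_singleton_iff]
        calc n * x = n * x * n⁻¹ * n := by group
          _ = x * n := by rw [h1]
      · right
        refine ⟨m⁻¹ * n, ?_, by show m * (m⁻¹ * n) = n; group⟩
        show m⁻¹ * n ∈ C
        rw [hC, mem_centralizer_singleton_iff]
        have h2 : n * x = x⁻¹ * n := by
          calc n * x = n * x * n⁻¹ * n := by group
            _ = x⁻¹ * n := by rw [h1]
        have h3 : m⁻¹ * x⁻¹ = x * m⁻¹ := by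
          rw [← hmi]; group
        calc m⁻¹ * n * x = m⁻¹ * (n * x) := by group
          _ = m⁻¹ * x⁻¹ * n := by rw [h2]; group
          _ = x * (m⁻¹ * n) := by rw [h3]; group
    have h1 : Set.ncard (N : Set G) ≤ Set.ncard (C : Set G) + Set.ncard ((fun c => m * c) '' (C : Set G)) :=
      (Set.ncard_le_ncard hsub (Set.toFinite _)).trans (Set.ncard_union_le _ _)
    have h2 : Set.ncard ((fun c => m * c) '' (C : Set G)) ≤ Set.ncard (C : Set G) := Set.ncard_image_le (Set.toFinite _)
    have h3 : Nat.card N = Set.ncard (N : Set G) := rfl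
    have h4 : Nat.card C = Set.ncard (C : Set G) := rfl
    omega

/-- `|N(5)| = 60` or 4860 -/
theorem card_n5 (h : IsoJ3 G) {R : Subgroup G} (hR : Nat.card R = 5) :
    Nat.card (normalizer (R : Set G)) = 60 ∨ Nat.card (normalizer (R : Set G)) = 4860 := by
  rcases Cfsg.Agent.H715.Fpr.J3.cn5 h hR with h1 | h1 | h1
  · exact Or.inl h1.2
  · exfalso
    obtain ⟨x, hx, rfl⟩ := Cfsg.Agent.H715.Fpr.eq_zpowers' (by norm_num) hR
    have h2 := card_normalizer_le h hx
    rw [Cfsg.Agent.H715.Fpr.cent_zpowers'] at h1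
    omega
  · exact Or.inr h1.2

theorem five (h : IsoJ3 G) : ¬ Dom ({2, 5} : Set ℕ) G := by
  have := Cfsg.Agent.H715.Fpr.J3.fin h
  have hc : Nat.card G = 50232960 := (H898.J3Cent.base h).2.1
  have f5 := Fact.mk Nat.prime_five
  obtain ⟨x, hx⟩ := exists_prime_orderOf_dvd_card' (G := G) 5 (by rw [hc]; norm_num)
  have hR : Nat.card (zpowers x) = 5 := by rw [Nat.card_zpowers, hx]
  rcases card_n5 h hR with h1 | h1
  · exact no2_of_count (p := 5) (a := 7) (b := 2) (c := 1) (m := 78489) (n := 15) (by norm_num) (by norm_num)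
      (by rw [hc]; norm_num) (by norm_num) (by norm_num) (P := zpowers x) (by rw [hR]; norm_num) (by rw [h1]; norm_num)
      (by norm_num) (by norm_num)
  · exact no2_of_count (p := 5) (a := 7) (b := 2) (c := 1) (m := 78489) (n := 1215) (by norm_num) (by norm_num)
      (by rw [hc]; norm_num) (by norm_num) (by norm_num) (P := zpowers x) (by rw [hR]; norm_num) (by rw [h1]; norm_num)
      (by norm_num) (by norm_num)

end Cfsg.Agent.H543.RV.JThree

namespace Cfsg.Agent.H543.RV

open Cfsg Cfsg.Agent.H571.DExt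

universe u

/-- **J3, `{2,5}`** -/
theorem no2_j3_5 {S : Type u} [Group S] [Finite S] (h : Spor.IsoJ3 S) : ¬ Dom ({2, 5} : Set ℕ) S := by
  obtain ⟨F, _, _, ω, hF, hω, ⟨e⟩⟩ := h
  have hI : Spor.IsoJ3 (Spor.J3 F ω) := ⟨F, inferInstance, inferInstance, ω, hF, hω, ⟨MulEquiv.refl _⟩⟩
  exact fun hD => JThree.five hI (Cfsg.Agent.H555.RV.dom_equiv e hD)

end Cfsg.Agent.H543.RV
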